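import Cfsg.Prelude.Def_OddOrderLocal
import Mathlib.Order.WellFounded
import Mathlib.Order.OrderIsoNat
import Mathlib.GroupTheory.Sylow

/-! Elementary properties of the Puig series. -/

set_option autoImplicit false

namespace Cfsg.Agent.Puig

open Cfsg

universe u
variable {G : Type u} [Group G]

theorem step_anti {X Y : Subgroup G} (h : X ≤ Y) : puigStep Y ≤ puigStep X :=
  sSup_le fun A hA => le_sSup (s := {A : Subgroup G | IsMulCommutative A ∧ X ≤ Subgroup.normalizer (A : Set G)}) ⟨hA.1, h.trans hA.2⟩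

theorem seq_one : puigSeq G 1 = ⊤ := by
  refine (Subgroup.eq_top_iff' _).2 fun g => ?_
  exact le_sSup (s := {A : Subgroup G | IsMulCommutative A ∧ puigSeq G 0 ≤ Subgroup.normalizer (A : Set G)})
    (a := Subgroup.zpowers g) ⟨inferInstance, bot_le⟩ (Subgroup.mem_zpowers g)

theorem even_le_odd (n m : ℕ) : puigSeq G (2 * n) ≤ puigSeq G (2 * m + 1) := by
  suffices ∀ s n m, n + m = s → puigSeq G (2 * n) ≤ puigSeq G (2 * m + 1) from this _ n m rfl
  intro s
  induction s using Nat.strong_induction_on with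
  | _ s ih =>
    intro n m hs
    cases n with
    | zero => exact bot_le
    | succ n =>
      show puigStep (puigSeq G (2 * n + 1)) ≤ puigStep (puigSeq G (2 * m))
      exact step_anti (ih _ (by omega) m n rfl)

theorem even_mono : Monotone (fun n => puigSeq G (2 * n)) := by
  refine monotone_nat_of_le_succ fun n => ?_
  induction n with
  | zero => exact bot_le
  | succ n ih =>
    show puigStep (puigStep (puigSeq G (2 * n))) ≤ puigStep (puigStep (puigSeq G (2 * (n + 1))))
    exact step_anti (step_anti ih)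

theorem odd_anti : Antitone (fun n => puigSeq G (2 * n + 1)) :=
  fun _ _ h => step_anti (even_mono h)

theorem stable [Finite G] : ∃ k : ℕ, ∀ n, k ≤ n →
    puigSeq G (2 * n) = puigLower G ∧ puigSeq G (2 * n + 1) = puigSubgroup G := by
  haveI : Finite (Subgroup G) := Finite.of_injective (fun H : Subgroup G => (H : Set G)) SetLike.coe_injective
  obtain ⟨k, hk⟩ := WellFoundedGT.monotone_chain_condition (α := Subgroup G)
    ⟨fun n => puigSeq G (2 * n), even_mono⟩
  have hlow : puigSeq G (2 * k) = puigLower G := le_antisymm (le_iSup (fun n => puigSeq G (2 * n)) k)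
    (iSup_le fun n => (even_mono (le_max_right k n)).trans (hk _ (le_max_left k n)).ge)
  have hup : puigSeq G (2 * k + 1) = puigSubgroup G := le_antisymm
    (le_iInf fun n => le_trans
      (show puigSeq G (2 * k + 1) ≤ puigSeq G (2 * (max k n) + 1) from (congrArg puigStep (hk _ (le_max_left k n))).le)
      (odd_anti (le_max_right k n)))
    (iInf_le (fun n => puigSeq G (2 * n + 1)) k)
  exact ⟨k, fun n hn => ⟨(hk n hn).symm.trans hlow, (congrArg puigStep (hk n hn).symm).trans hup⟩⟩

theorem lower_le_upper : puigLower G ≤ puigSubgroup G :=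
  iSup_le fun n => le_iInf fun m => even_le_odd n m

theorem le_seq {A : Subgroup G} (hA : IsMulCommutative A) (hn : A.Normal) {i : ℕ} (hi : 0 < i) :
    A ≤ puigSeq G i := by
  obtain ⟨j, rfl⟩ : ∃ j, i = j + 1 := ⟨i - 1, by omega⟩
  exact le_sSup (s := {A : Subgroup G | IsMulCommutative A ∧ puigSeq G j ≤ Subgroup.normalizer (A : Set G)})
    ⟨hA, by rw [Subgroup.normalizer_eq_top_iff.2 hn]; exact le_top⟩

theorem exists_selfcentralizing [Finite G] {p : ℕ} [Fact p.Prime] (hG : IsPGroup p G) :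
    ∃ A : Subgroup G, IsMulCommutative A ∧ A.Normal ∧ Subgroup.centralizer (A : Set G) ≤ A := by
  haveI : Finite (Subgroup G) := Finite.of_injective (fun H : Subgroup G => (H : Set G)) SetLike.coe_injective
  obtain ⟨A, ⟨hA, hn⟩, hmax⟩ := (Set.toFinite {A : Subgroup G | IsMulCommutative A ∧ A.Normal}).exists_maximal
    ⟨⊥, inferInstance, inferInstance⟩
  refine ⟨A, hA, hn, ?_⟩
  by_contra hle
  haveI := hn
  set C := Subgroup.centralizer (A : Set G) with hC
  haveI : C.Normal := inferInstance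
  set Cb := C.map (QuotientGroup.mk' A) with hCb
  haveI : Cb.Normal := Subgroup.Normal.map inferInstance _ (QuotientGroup.mk'_surjective A)
  haveI : Nontrivial ↥Cb := Cb.nontrivial_iff_ne_bot.2 fun e => hle (by
    rw [hCb, Subgroup.map_eq_bot_iff, QuotientGroup.ker_mk'] at e; exact e)
  haveI := Cb.nontrivial_iff_ne_bot.1 ‹Nontrivial ↥Cb›
  obtain ⟨q, hq, hq1⟩ : ∃ q ∈ Cb ⊓ Subgroup.center (G ⧸ A), q ≠ 1 := by
    letI : MulAction (G ⧸ A) ↥Cb := MulAction.compHom ↥Cb (MulAut.conjNormal (H := Cb))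
    have hval : ∀ (g : G ⧸ A) (x : ↥Cb), ((g • x : ↥Cb) : G ⧸ A) = g * x * g⁻¹ := fun _ _ => rfl
    obtain ⟨i, hi, hc⟩ := ((hG.to_quotient A).to_subgroup Cb).nontrivial_iff_card.1 ‹_›
    have h1 : (1 : ↥Cb) ∈ MulAction.fixedPoints (G ⧸ A) ↥Cb := fun g => Subtype.ext (by simp [hval])
    obtain ⟨b, hb, hb1⟩ := (hG.to_quotient A).exists_fixed_point_of_prime_dvd_card_of_fixed_point ↥Cb
      (hc ▸ dvd_pow_self p (Nat.pos_iff_ne_zero.1 hi)) h1
    refine ⟨b, ⟨b.2, Subgroup.mem_center_iff.2 fun g => ?_⟩, fun e => hb1 (Subtype.ext e).symm⟩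
    have := congrArg Subtype.val (hb g)
    rw [hval, mul_inv_eq_iff_eq_mul] at this
    exact this
  obtain ⟨x, hx, rfl⟩ := hq.1
  haveI : (A ⊔ Subgroup.zpowers x).Normal := by
    have e : A ⊔ Subgroup.zpowers x = (Subgroup.zpowers (x : G ⧸ A)).comap (QuotientGroup.mk' A) := by
      rw [show Subgroup.zpowers (x : G ⧸ A) = (Subgroup.zpowers x).map (QuotientGroup.mk' A) from
        ((QuotientGroup.mk' A).map_zpowers x).symm, Subgroup.comap_map_eq, QuotientGroup.ker_mk', sup_comm]
    rw [e]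
    haveI : (Subgroup.zpowers (x : G ⧸ A)).Normal := ⟨fun n hn g => by
      have hnc := (Subgroup.zpowers_le.2 hq.2) hn
      rw [Subgroup.mem_center_iff.1 hnc g, mul_inv_cancel_right]; exact hn⟩
    infer_instance
  have hcomm : IsMulCommutative ↥(A ⊔ Subgroup.zpowers x) := by
    rw [Subgroup.sup_eq_closure]
    refine Subgroup.isMulCommutative_closure fun a ha b hb => ?_
    have key : ∀ a ∈ A, a * x = x * a := fun a ha => Subgroup.mem_centralizer_iff.1 hx a ha
    rcases ha with ha | ⟨i, rfl⟩ <;> rcases hb with hb | ⟨j, rfl⟩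
    · exact congrArg Subtype.val (mul_comm' (⟨a, ha⟩ : ↥A) ⟨b, hb⟩)
    · exact (Commute.zpow_right (key a ha) j).eq
    · exact (Commute.zpow_right (key b hb) i).eq.symm
    · exact (Commute.zpow_zpow_self x i j).eq
  have hsub := hmax ⟨hcomm, inferInstance⟩ le_sup_left
  exact hq1 ((QuotientGroup.eq_one_iff x).2 (hsub (le_sup_right (a := A) (Subgroup.mem_zpowers x))))

end Cfsg.Agent.Puig
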